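import Mathlib
import Cfsg.Agent.H821.K547.Defs

/-!
# S4547, K547-QO-F4 (helper990): the action of the normaliser of a quasisimple subgroup

`Act φ θ` : `θ : St → D` and `φ : St → A` surjective resp. arbitrary, the kernel of `θ` is the preimage of the centre of
the image of `φ`. `rho : N_A(φ St) → MulAut D`.
-/

set_option autoImplicit false

namespace Cfsg.Agent.H990.K547

open Subgroup

universe u v w

section act

variable {St : Type u} {A : Type v} {D : Type w} [Group St] [Group A] [Group D]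

/-- the image of `φ` modulo its centre is `D`, via `θ` -/
structure Act (φ : St →* A) (θ : St →* D) : Prop where
  surj : Function.Surjective θ
  ker : ∀ x, φ x = 1 → θ x = 1
  cen : ∀ x, θ x = 1 ↔ ∀ y, φ x * φ y = φ y * φ x

/-- the situation of a quasisimple image -/
theorem Act.of_perfect {φ : St →* A} {θ : St →* D} (hθ : Function.Surjective θ) (hk : θ.ker = center St)
    (hperf : commutator St = ⊤) [IsSimpleGroup D] (hne : ∃ x, φ x ≠ 1) : Act φ θ := by
  have hs := φ.rangeRestrict_surjective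
  have hSt : Group.IsPerfect St := ⟨hperf⟩
  have hL : Group.IsPerfect ↥φ.range := Group.IsPerfect.ofSurjective (f := φ.rangeRestrict) hs
  let ψ : St →* ↥φ.range ⧸ center ↥φ.range := (QuotientGroup.mk' _).comp φ.rangeRestrict
  have hψ : Function.Surjective ψ := (QuotientGroup.mk'_surjective _).comp hs
  have hmem : ∀ x, x ∈ ψ.ker ↔ φ.rangeRestrict x ∈ center ↥φ.range := by
    intro x
    rw [MonoidHom.mem_ker, MonoidHom.comp_apply, ← MonoidHom.mem_ker, QuotientGroup.ker_mk']
  have h1 : θ.ker ≤ ψ.ker := by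
    rw [hk]
    intro z hz
    rw [hmem, mem_center_iff]
    intro y
    obtain ⟨x, rfl⟩ := hs y
    rw [← map_mul, ← map_mul, (mem_center_iff.1 hz x)]
  have h2 : ψ.ker = θ.ker := by
    have hN : (ψ.ker.map θ).Normal := Subgroup.Normal.map inferInstance θ hθ
    rcases hN.eq_bot_or_eq_top with h3 | h3
    · exact le_antisymm ((Subgroup.map_eq_bot_iff _).1 h3) h1
    · exfalso
      have h4 : ψ.ker = ⊤ := by
        rw [eq_top_iff]
        intro x _
        obtain ⟨y, hy, hxy⟩ : θ x ∈ ψ.ker.map θ := h3 ▸ mem_top _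
        have h5 : x * y⁻¹ ∈ θ.ker := by rw [MonoidHom.mem_ker, map_mul, map_inv, hxy, mul_inv_cancel]
        have h6 := ψ.ker.mul_mem (h1 h5) hy
        rwa [inv_mul_cancel_right] at h6
      have h5 : center ↥φ.range = ⊤ := by
        rw [eq_top_iff]
        intro y _
        obtain ⟨x, rfl⟩ := hs y
        exact (hmem x).1 (h4 ▸ mem_top x)
      have h6 := hL.commutator_eq_top
      rw [(commutator_eq_bot_iff_center_eq_top _).2 h5] at h6
      obtain ⟨x, hx⟩ := hne
      have h7 : φ.rangeRestrict x ∈ (⊥ : Subgroup ↥φ.range) := h6 ▸ mem_top _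
      exact hx (congrArg Subtype.val (mem_bot.1 h7))
  have h3 : ∀ x, θ x = 1 ↔ ∀ y, φ x * φ y = φ y * φ x := by
    intro x
    rw [← MonoidHom.mem_ker, ← h2, hmem, mem_center_iff]
    refine ⟨fun h y => ?_, fun h y => ?_⟩
    · exact (congrArg Subtype.val (h (φ.rangeRestrict y))).symm
    · obtain ⟨y, rfl⟩ := hs y
      exact Subtype.ext (h y).symm
  exact ⟨hθ, fun x hx => (h3 x).2 fun y => by rw [hx, one_mul, mul_one], h3⟩

variable {φ : St →* A} {θ : St →* D}

theorem Act.well (h : Act φ θ) {m : A} (hm : m ∈ normalizer (φ.range : Set A)) {x x' y y' : St} (hx : θ x = θ x')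
    (hy : φ y = m * φ x * m⁻¹) (hy' : φ y' = m * φ x' * m⁻¹) : θ y = θ y' := by
  have h1 : θ (x⁻¹ * x') = 1 := by rw [map_mul, map_inv, hx, inv_mul_cancel]
  have h2 := (h.cen _).1 h1
  have h3 : θ (y⁻¹ * y') = 1 := by
    rw [h.cen]
    have h4 : φ (y⁻¹ * y') = m * φ (x⁻¹ * x') * m⁻¹ := by
      rw [map_mul, map_inv, hy, hy', map_mul, map_inv]
      group
    intro w
    obtain ⟨w', hw'⟩ : m⁻¹ * φ w * m ∈ φ.range := by
      have h5 := (Subgroup.mem_normalizer_iff.1 (inv_mem hm) (φ w)).1 ⟨w, rfl⟩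
      rwa [inv_inv] at h5
    have h6 := h2 w'
    rw [hw'] at h6
    rw [h4]
    calc m * φ (x⁻¹ * x') * m⁻¹ * φ w = m * (φ (x⁻¹ * x') * (m⁻¹ * φ w * m)) * m⁻¹ := by group
      _ = m * (m⁻¹ * φ w * m * φ (x⁻¹ * x')) * m⁻¹ := by rw [h6]
      _ = φ w * (m * φ (x⁻¹ * x') * m⁻¹) := by group
  rw [map_mul, map_inv, inv_mul_eq_one] at h3
  exact h3

theorem exists_conj {m : A} (hm : m ∈ normalizer (φ.range : Set A)) (x : St) : ∃ y, φ y = m * φ x * m⁻¹ :=
  (Subgroup.mem_normalizer_iff.1 hm (φ x)).1 ⟨x, rfl⟩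

/-- the action on `D` -/
noncomputable def Act.f (h : Act φ θ) (m : normalizer (φ.range : Set A)) (d : D) : D :=
  θ (exists_conj m.2 (h.surj d).choose).choose

theorem Act.f_eq (h : Act φ θ) (m : normalizer (φ.range : Set A)) {x y : St} (hy : φ y = m * φ x * (m : A)⁻¹) :
    h.f m (θ x) = θ y :=
  h.well m.2 (h.surj (θ x)).choose_spec (exists_conj m.2 (h.surj (θ x)).choose).choose_spec hy

theorem Act.f_mul (h : Act φ θ) (m m' : normalizer (φ.range : Set A)) (d : D) :
    h.f (m * m') d = h.f m (h.f m' d) := by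
  obtain ⟨x, rfl⟩ := h.surj d
  obtain ⟨y, hy⟩ := exists_conj m'.2 x
  obtain ⟨z, hz⟩ := exists_conj m.2 y
  rw [h.f_eq m' hy, h.f_eq m hz]
  apply h.f_eq
  rw [hz, hy, Subgroup.coe_mul]
  group

theorem Act.f_one (h : Act φ θ) (d : D) : h.f 1 d = d := by
  obtain ⟨x, rfl⟩ := h.surj d
  exact h.f_eq 1 (by rw [Subgroup.coe_one, one_mul, inv_one, mul_one])

theorem Act.f_mul' (h : Act φ θ) (m : normalizer (φ.range : Set A)) (d d' : D) :
    h.f m (d * d') = h.f m d * h.f m d' := by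
  obtain ⟨x, rfl⟩ := h.surj d
  obtain ⟨x', rfl⟩ := h.surj d'
  obtain ⟨y, hy⟩ := exists_conj m.2 x
  obtain ⟨y', hy'⟩ := exists_conj m.2 x'
  rw [h.f_eq m hy, h.f_eq m hy', ← map_mul, ← map_mul]
  apply h.f_eq
  rw [map_mul, map_mul, hy, hy']
  group

/-- the action of the normaliser -/
noncomputable def Act.rho (h : Act φ θ) : normalizer (φ.range : Set A) →* MulAut D where
  toFun m :=
    { toFun := h.f m
      invFun := h.f m⁻¹
      left_inv := fun d => by rw [← h.f_mul, inv_mul_cancel, h.f_one]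
      right_inv := fun d => by rw [← h.f_mul, mul_inv_cancel, h.f_one]
      map_mul' := h.f_mul' m }
  map_one' := MulEquiv.ext h.f_one
  map_mul' m m' := MulEquiv.ext (h.f_mul m m')

theorem Act.rho_eq (h : Act φ θ) (m : normalizer (φ.range : Set A)) {x y : St} (hy : φ y = m * φ x * (m : A)⁻¹) :
    h.rho m (θ x) = θ y := h.f_eq m hy

theorem Act.rho_range (h : Act φ θ) (x : St) :
    h.rho ⟨φ x, Subgroup.le_normalizer ⟨x, rfl⟩⟩ = MulAut.conj (θ x) := by
  apply MulEquiv.ext
  intro d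
  obtain ⟨y, rfl⟩ := h.surj d
  rw [h.rho_eq _ (y := x * y * x⁻¹) (by rw [map_mul, map_mul, map_inv]), map_mul, map_mul, map_inv, MulAut.conj_apply]

theorem Act.rho_cent (h : Act φ θ) {m : A} (hm : m ∈ normalizer (φ.range : Set A)) (hc : ∀ x, m * φ x = φ x * m) :
    h.rho ⟨m, hm⟩ = 1 := by
  apply MulEquiv.ext
  intro d
  obtain ⟨y, rfl⟩ := h.surj d
  rw [h.rho_eq _ (y := y) (by
    change φ y = m * φ y * m⁻¹
    rw [hc, mul_inv_cancel_right])]
  rfl

end act

end Cfsg.Agent.H990.K547
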