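import Mathlib
import Cfsg.Agent.H821.K547.Defs
import Cfsg.Agent.H358.K547.T3
import Cfsg.Agent.H990.K547.Act

/-!
# S4547, K547-QO-F4 (helper990): `D3` from a subgroup of odd index
-/

set_option autoImplicit false

namespace Cfsg.Agent.H990.K547

open Subgroup Cfsg.Agent.H821.K547

universe u v w

/-- (T1) -/
theorem d3_of_odd {S : Type u} [Group S] [Finite S] (M : Subgroup S) (hM : ¬ 2 ∣ M.index) {Y : Type v} [Group Y]
    [Finite Y] (F : M →* Y) (hF : Function.Surjective F) (hY : D3 Y) : D3 S := by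
  have hf : Fact (Nat.Prime 2) := ⟨Nat.prime_two⟩
  intro Q
  obtain ⟨R⟩ : Nonempty (Sylow 2 M) := inferInstance
  -- the image in `S`
  have h1 : ¬ 2 ∣ ((R : Subgroup M).map M.subtype).index := by
    rw [Subgroup.index_map_subtype, Nat.prime_two.dvd_mul, not_or]
    exact ⟨R.not_dvd_index, hM⟩
  let R' : Sylow 2 S := (R.isPGroup'.map M.subtype).toSylow h1
  have e1 : (R : Subgroup M) ≃* (R' : Subgroup S) :=
    (R : Subgroup M).equivMapOfInjective M.subtype M.subtype_injective
  -- the image in `Y`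
  have h2 : ¬ 2 ∣ ((R : Subgroup M).map F).index := by
    intro h3
    exact R.not_dvd_index (h3.trans (Subgroup.index_map_dvd _ hF))
  let RY : Sylow 2 Y := (R.isPGroup'.map F).toSylow h2
  obtain ⟨g, hg⟩ := hY RY
  let G : (R : Subgroup M) →* (RY : Subgroup Y) := F.subgroupMap (R : Subgroup M)
  have hG : Function.Surjective G := F.subgroupMap_surjective (R : Subgroup M)
  have h3 : Rk 3 (R : Subgroup M) := ⟨g.comp G, hg.comp hG⟩
  exact H358.K547.rk_congr (R'.equiv Q) (H358.K547.rk_congr e1 h3)

/-- `|Inn <τ>|` is divisible by `2 |D|` -/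
theorem two_mul_card_dvd {D : Type u} [Group D] [Finite D] (hZ : center D = ⊥) {τ : MulAut D} (hτ : ¬ IsInn τ)
    {s : D} (hs : ∀ x, (τ * τ) x = s * x * s⁻¹) : 2 * Nat.card D ∣ Nat.card (AutExt τ) := by
  have hfin : Finite (MulAut D) := Finite.of_injective (fun f : MulAut D => (f : D → D)) fun f g h => MulEquiv.ext (congrFun h)
  set I : Subgroup (MulAut D) := (MulAut.conj : D →* MulAut D).range with hI
  have hIle : I ≤ AutExt τ := le_sup_left
  have hIn : I.Normal := by
    constructor
    rintro _ ⟨d, rfl⟩ g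
    refine ⟨g d, ?_⟩
    apply MulEquiv.ext
    intro x
    rw [MulAut.conj_apply, MulAut.mul_apply, MulAut.mul_apply, MulAut.conj_apply, map_mul, map_mul, map_inv,
      MulAut.apply_inv_self]
  have hinn : ∀ f : MulAut D, f ∈ I → IsInn f := by
    rintro _ ⟨d, rfl⟩
    exact ⟨d, fun x => rfl⟩
  have hcI : Nat.card I = Nat.card D := by
    have hinj : Function.Injective (MulAut.conj : D →* MulAut D) := by
      rw [injective_iff_map_eq_one]
      intro d hd
      have : d ∈ center D := by
        rw [mem_center_iff]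
        intro g
        have h1 := MulEquiv.congr_fun hd g
        rw [MulAut.conj_apply, MulAut.one_apply, mul_inv_eq_iff_eq_mul] at h1
        exact h1.symm
      rwa [hZ, mem_bot] at this
    exact (Nat.card_congr (MonoidHom.ofInjective hinj).toEquiv).symm
  have h1 : Nat.card I * I.relIndex (AutExt τ) = Nat.card (AutExt τ) := by
    rw [← Subgroup.relIndex_bot_left, ← Subgroup.relIndex_bot_left]
    exact Subgroup.relIndex_mul_relIndex _ _ _ bot_le hIle
  rw [← h1, hcI, mul_comm 2]
  refine Nat.mul_dvd_mul_left _ ?_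
  by_contra hodd
  have hτA : τ ∈ AutExt τ := (le_sup_right : zpowers τ ≤ AutExt τ) (mem_zpowers τ)
  have h2 := Subgroup.pow_index_mem (I.subgroupOf (AutExt τ)) ⟨τ, hτA⟩
  have h3 : τ ^ I.relIndex (AutExt τ) ∈ I := h2
  obtain ⟨j, hj⟩ : Odd (I.relIndex (AutExt τ)) := by
    rw [← Nat.not_even_iff_odd, even_iff_two_dvd]
    exact hodd
  have h4 : τ * τ ∈ I := ⟨s, MulEquiv.ext fun x => (hs x).symm⟩
  rw [hj, pow_succ, pow_mul, pow_two] at h3
  have h5 : τ ∈ I := (I.mul_mem_cancel_left (I.pow_mem h4 j)).1 h3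
  exact hτ (hinn τ h5)

/-- the general statement: a quasisimple subgroup `K` with `K / Z(K) = D`, an element of the normaliser which induces an
outer automorphism with inner square, a subgroup of order divisible by 4 centralising `K`, and `|A|_2 = 8 |D|_2`. -/
theorem d3_of_act {St : Type w} {A D : Type u} [Group St] [Group A] [Finite A] [Group D] [Finite D] {φ : St →* A}
    {θ : St →* D} (h : Act φ θ) (hZ : center D = ⊥) (m : normalizer (φ.range : Set A)) (hτ : ¬ IsInn (h.rho m))
    {s : D} (hs : ∀ x, (h.rho m * h.rho m) x = s * x * s⁻¹) (C : Subgroup A) (hC : ∀ c ∈ C, ∀ x, c * φ x = φ x * c)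
    (hC4 : 4 ∣ Nat.card C) (hcard : (Nat.card A).factorization 2 ≤ (Nat.card D).factorization 2 + 3)
    (hJ : D3 (AutExt (h.rho m))) : D3 A := by
  have hf : Fact (Nat.Prime 2) := ⟨Nat.prime_two⟩
  have hfin : Finite (MulAut D) := Finite.of_injective (fun f : MulAut D => (f : D → D)) fun f g h => MulEquiv.ext (congrFun h)
  set τ := h.rho m with hτd
  -- the range of `rho` contains `AutExt τ`
  have hr : AutExt τ ≤ h.rho.range := by
    refine sup_le ?_ ?_
    · rintro _ ⟨d, rfl⟩
      obtain ⟨x, rfl⟩ := h.surj d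
      exact ⟨_, h.rho_range x⟩
    · rw [zpowers_le]
      exact ⟨m, rfl⟩
  set M1 : Subgroup (normalizer (φ.range : Set A)) := (AutExt τ).comap h.rho with hM1
  let F1 : M1 →* AutExt τ := (h.rho.comp M1.subtype).codRestrict (AutExt τ) fun x => x.2
  have hF1 : Function.Surjective F1 := by
    rintro ⟨y, hy⟩
    obtain ⟨x, rfl⟩ := hr hy
    exact ⟨⟨x, hy⟩, rfl⟩
  -- the kernel
  have hCN : C ≤ normalizer (φ.range : Set A) := by
    intro c hc
    rw [Subgroup.mem_normalizer_iff]
    have h1 : ∀ k ∈ φ.range, c * k * c⁻¹ = k := by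
      rintro _ ⟨x, rfl⟩
      rw [hC c hc, mul_inv_cancel_right]
    intro g
    refine ⟨fun hg => ?_, fun hg => ?_⟩
    · change c * g * c⁻¹ ∈ φ.range
      rw [h1 g hg]
      exact hg
    · have h2 := h1 _ hg
      have h3 : c * (c * g * c⁻¹) * c⁻¹ = c * g * c⁻¹ := h2
      have h4 : c * g * c⁻¹ = g := mul_left_cancel (mul_right_cancel h3)
      rw [← h4]
      exact hg
  have hker : 4 ∣ Nat.card F1.ker := by
    refine hC4.trans ?_
    let j : C →* F1.ker :=
      { toFun := fun c => ⟨⟨⟨c, hCN c.2⟩, by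
            rw [hM1, Subgroup.mem_comap, h.rho_cent (hCN c.2) (hC c c.2)]
            exact one_mem _⟩, Subtype.ext (h.rho_cent (hCN c.2) (hC c c.2))⟩
        map_one' := rfl
        map_mul' := fun _ _ => rfl }
    refine card_dvd_of_injective j fun a b hab => ?_
    apply Subtype.ext
    exact congrArg (fun x : F1.ker => (((x : M1) : normalizer (φ.range : Set A)) : A)) hab
  have h1 : Nat.card M1 = Nat.card F1.ker * Nat.card (AutExt τ) := by
    rw [← F1.ker.card_mul_index, index_ker, MonoidHom.range_eq_top.2 hF1, card_top]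
  have h2 := two_mul_card_dvd hZ hτ hs
  -- the index is odd
  set M : Subgroup A := M1.map (normalizer (φ.range : Set A)).subtype with hM
  have e : M1 ≃* M := M1.equivMapOfInjective (normalizer (φ.range : Set A)).subtype (subtype_injective _)
  have h3 : 8 * Nat.card D ∣ Nat.card M := by
    rw [← Nat.card_congr e.toEquiv, h1]
    have := Nat.mul_dvd_mul hker h2
    have h4 : 4 * (2 * Nat.card D) = 8 * Nat.card D := by ring
    rwa [h4] at this
  have hMi : ¬ 2 ∣ M.index := by
    intro h4
    have h5 : 2 * (8 * Nat.card D) ∣ Nat.card A := by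
      rw [← M.card_mul_index, mul_comm 2]
      exact Nat.mul_dvd_mul h3 h4
    have hD0 : Nat.card D ≠ 0 := Nat.card_pos.ne'
    have h6 := (Nat.factorization_le_iff_dvd (by omega) Nat.card_pos.ne').2 h5 2
    have h7 : (2 * (8 * Nat.card D)).factorization 2 = (Nat.card D).factorization 2 + 4 := by
      have h8 : 2 * (8 * Nat.card D) = 2 ^ 4 * Nat.card D := by ring
      rw [h8, Nat.factorization_mul (by norm_num) Nat.card_pos.ne', Nat.factorization_pow]
      simp [Nat.prime_two.factorization_self]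
      ring
    omega
  exact d3_of_odd M hMi (F1.comp e.symm.toMonoidHom) (hF1.comp e.symm.surjective) hJ

end Cfsg.Agent.H990.K547
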